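import Cfsg.Agent.Lib.Helper6.X32.Defs
import Cfsg.Agent.Lib.Helper94.Symp

set_option autoImplicit false
open scoped MatrixGroups Matrix
open Cfsg

namespace Cfsg.Agent.Lib.Helper83.X32

open Cfsg.Agent.Lib.Helper6.X32

universe u

variable {F : Type u} [Field F]

/-- the `2 × 2` matrix `[[a, b], [c, d]]` acting on the hyperbolic plane `⟨e_{inl 0}, e_{inr 0}⟩`,
identity on the other two basis vectors -/
def emb (a b c d : F) : M4 F :=
  Matrix.fromBlocks !![a, 0; 0, 1] !![b, 0; 0, 0] !![c, 0; 0, 0] !![d, 0; 0, 1]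

theorem emb_ext {a b c d a' b' c' d' : F} (ha : a = a') (hb : b = b') (hc : c = c')
    (hd : d = d') : emb a b c d = emb a' b' c' d' := by
  rw [ha, hb, hc, hd]

theorem emb_mul (a b c d a' b' c' d' : F) :
    emb a b c d * emb a' b' c' d' =
      emb (a * a' + b * c') (a * b' + b * d') (c * a' + d * c') (c * b' + d * d') := by
  unfold emb
  rw [Matrix.fromBlocks_multiply]
  congr 1 <;>
  · ext i j
    fin_cases i <;> fin_cases j <;> simp [Matrix.mul_apply, Fin.sum_univ_two]

theorem emb_one : emb (1 : F) 0 0 1 = 1 := by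
  unfold emb
  rw [← Matrix.fromBlocks_one]
  congr 1 <;>
  · ext i j
    fin_cases i <;> fin_cases j <;> simp

theorem emb_mulVec (a b c d : F) (u : I4 → F) :
    emb a b c d *ᵥ u = Sum.elim ![a * u (Sum.inl 0) + b * u (Sum.inr 0), u (Sum.inl 1)]
      ![c * u (Sum.inl 0) + d * u (Sum.inr 0), u (Sum.inr 1)] := by
  unfold emb
  rw [Matrix.fromBlocks_mulVec]
  ext i
  rcases i with i | i <;> fin_cases i <;>
    simp [Matrix.mulVec, dotProduct, Fin.sum_univ_two]

theorem emb_symp (a b c d : F) (h : a * d - b * c = 1) (u v : I4 → F) :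
    sympForm 2 F (emb a b c d *ᵥ u) (emb a b c d *ᵥ v) = sympForm 2 F u v := by
  rw [Cfsg.Agent.Lib.Helper94.sf_eq, Cfsg.Agent.Lib.Helper94.sf_eq, emb_mulVec, emb_mulVec,
    Fin.sum_univ_two, Fin.sum_univ_two]
  simp only [Sum.elim_inl, Sum.elim_inr, Matrix.cons_val_zero, Matrix.cons_val_one]
  linear_combination (u (Sum.inr 0) * v (Sum.inl 0) - u (Sum.inl 0) * v (Sum.inr 0)) * h

/-- the element of `GL_4` given by `emb a b c d` when `a d - b c = 1` -/
def embGL (a b c d : F) (h : a * d - b * c = 1) : GL4 F :=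
  ⟨emb a b c d, emb d (-b) (-c) a,
    by rw [emb_mul, ← emb_one]; exact emb_ext (by linear_combination h) (by ring) (by ring)
        (by linear_combination h),
    by rw [emb_mul, ← emb_one]; exact emb_ext (by linear_combination h) (by ring) (by ring)
        (by linear_combination h)⟩

theorem embGL_val (a b c d : F) (h : a * d - b * c = 1) :
    ((embGL a b c d h : GL4 F) : M4 F) = emb a b c d := rfl

theorem embGL_mem (a b c d : F) (h : a * d - b * c = 1) : embGL a b c d h ∈ spGL 2 F := by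
  rw [Cfsg.Agent.Lib.Helper94.mem_spGL_iff]
  intro u v
  rw [embGL_val]
  exact emb_symp a b c d h u v

theorem emb_trace (a b c d : F) : Matrix.trace (emb a b c d) = a + d + 2 := by
  unfold emb
  simp only [Matrix.trace, Matrix.diag_apply, Fintype.sum_sum_type, Fin.sum_univ_two,
    Matrix.fromBlocks_apply₁₁, Matrix.fromBlocks_apply₂₂]
  simp
  ring

theorem embGL_not_scalar (a b c d : F) (h : a * d - b * c = 1) (hb : b ≠ 0) :
    ¬ IsScalar (embGL a b c d h) := by
  rintro ⟨z, hz⟩
  rw [embGL_val] at hz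
  have h1 := congrFun (congrFun hz (Sum.inl 0)) (Sum.inr 0)
  unfold emb at h1
  rw [Matrix.fromBlocks_apply₁₂, Matrix.smul_apply, Matrix.one_apply_ne (by simp)] at h1
  simp at h1
  exact hb h1

end Cfsg.Agent.Lib.Helper83.X32
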