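import Cfsg.Agent.Lib.Helper83.X32.Emb

set_option autoImplicit false
open scoped MatrixGroups Matrix
open Cfsg

namespace Cfsg.Agent.Lib.Helper83.X32

open Cfsg.Agent.Lib.Helper6.X32

universe u

theorem pkgX3 : PkgX3.{u} := by
  intro F _
  have h : (0 : F) * (-1) - (-1) * 1 = 1 := by ring
  refine ⟨embGL 0 (-1) 1 (-1) h, embGL_mem _ _ _ _ h, ?_, ?_, ?_⟩
  · apply Units.ext
    rw [Units.val_pow_eq_pow_val, embGL_val, Units.val_one, pow_succ, pow_succ, pow_one, emb_mul,
      emb_mul, ← emb_one]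
    exact emb_ext (by ring) (by ring) (by ring) (by ring)
  · rw [embGL_val, emb_trace]
    ring
  · exact embGL_not_scalar _ _ _ _ h (neg_ne_zero.mpr one_ne_zero)

theorem pkgX5 : PkgX5.{u} := by
  intro F _ τ hτ
  have h : (0 : F) * τ - (-1) * 1 = 1 := by ring
  refine ⟨embGL 0 (-1) 1 τ h, embGL_mem _ _ _ _ h, ?_, ?_, ?_⟩
  · apply Units.ext
    rw [Units.val_pow_eq_pow_val, embGL_val, Units.val_one, pow_succ, pow_succ, pow_succ, pow_succ,
      pow_one, emb_mul, emb_mul, emb_mul, emb_mul, ← emb_one]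
    exact emb_ext (by linear_combination (1 - τ) * hτ)
      (by linear_combination (-τ ^ 2 + τ + 1) * hτ)
      (by linear_combination (τ ^ 2 - τ - 1) * hτ)
      (by linear_combination (τ ^ 3 - τ ^ 2 - 2 * τ + 1) * hτ)
  · rw [embGL_val, emb_trace]
    ring
  · exact embGL_not_scalar _ _ _ _ h (neg_ne_zero.mpr one_ne_zero)

end Cfsg.Agent.Lib.Helper83.X32
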